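import Cfsg.Agent.A9M.A
import Cfsg.Agent.Hig.S4M

/-! The frame for `H = N(J)`: `el (k, 0)` are the elements of `J`, `el (0, i)` the complement `S₄` (model of S3702). -/

set_option autoImplicit false

namespace Cfsg.Agent.A9M

open Equiv Subgroup Cfsg.Agent.Hig

variable {G : Type*} [Group G]

structure HM (J : Subgroup G) (el : Q4 → G) : Prop where
  mul : ∀ p q, el (qm p q) = el p * el q
  inj : Function.Injective el
  nJ : ∀ g, g ∈ normalizer (J : Set G) ↔ ∃ p, el p = g
  mJ : ∀ g, g ∈ J ↔ ∃ k, el (k, 0) = g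
  core : ∀ p, orderOf (el p) = 3 → Cfsg.pPrimeCore 3 (centralizer ({el p} : Set G)) = ⊥

/-- number of nonzero coordinates -/
def wt (k : K3) : ℕ := (if k.1 = 0 then 0 else 1) + (if k.2.1 = 0 then 0 else 1) + (if k.2.2 = 0 then 0 else 1)

end Cfsg.Agent.A9M
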