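import Cfsg.Agent.A9M.H
import Cfsg.Agent.A9R.SP

set_option autoImplicit false
set_option linter.unusedSectionVars false

namespace Cfsg.Agent.A9M

open Equiv Subgroup Cfsg.Agent.Hig

variable {G : Type*} [Group G] [Finite G] {J : Subgroup G} {el : Q4 → G}

theorem HM.h4_one (h : HM J el) : el (0, 0) = 1 := by
  have := h.mul (0, 0) (0, 0)
  rw [show qm (0, 0) (0, 0) = (0, 0) by decide +kernel] at this
  simpa using this

theorem HM.h4_cj (h : HM J el) {p q r : Q4} (e : qm p q = qm r p) : el p * el q * (el p)⁻¹ = el r := by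
  rw [mul_inv_eq_iff_eq_mul, ← h.mul, ← h.mul, e]

theorem HM.h4_cj' (h : HM J el) {p q r : Q4} (e : el p * el q * (el p)⁻¹ = el r) : qm p q = qm r p := by
  rw [mul_inv_eq_iff_eq_mul, ← h.mul, ← h.mul] at e
  exact h.inj e

theorem HM.h4_inv (h : HM J el) {p q : Q4} (e : qm p q = (0, 0)) : (el p)⁻¹ = el q :=
  inv_eq_of_mul_eq_one_right (by rw [← h.mul, e, h.h4_one])

theorem HM.h4_pw (h : HM J el) (p : Q4) (n : ℕ) : el (qp p n) = el p ^ n := by
  induction n with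
  | zero => rw [pow_zero, qp, h.h4_one]
  | succ n ih => rw [qp, h.mul, ih, pow_succ]

theorem h4_u {a u x : G} {σ : Perm (Fin 6) →* G} (a3 : a ^ 3 = 1) (dj : ∀ π, σ π ∈ zpowers a → π = 1)
    (hu : u ∈ zpowers a) {π t : Perm (Fin 6)} (e : x = u * σ π) (xa : Commute x a) (ta : Commute (σ t) a)
    (iv : σ t * x * (σ t)⁻¹ = x⁻¹) : σ π = x := by
  obtain ⟨k, rfl⟩ := hu
  have hk : ∀ {y}, Commute y a → Commute y (a ^ k) := fun c => c.zpow_right k
  have c1 : Commute (σ π) (a ^ k) := by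
    have : σ π = (a ^ k)⁻¹ * x := by rw [e]; group
    rw [this]
    exact ((Commute.refl _).inv_left).mul_left (hk xa)
  have e1 : σ (t * π * t⁻¹ * π) = (a ^ k * a ^ k)⁻¹ := by
    have e2 : σ t * x * (σ t)⁻¹ * x = 1 := by rw [iv, inv_mul_cancel]
    have e3 : σ t * x * (σ t)⁻¹ * x = a ^ k * a ^ k * σ (t * π * t⁻¹ * π) := by
      simp only [map_mul, map_inv]
      rw [e]
      calc σ t * (a ^ k * σ π) * (σ t)⁻¹ * (a ^ k * σ π)
          = (σ t * a ^ k) * σ π * ((σ t)⁻¹ * a ^ k) * σ π := by group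
        _ = a ^ k * σ t * (σ π * a ^ k) * (σ t)⁻¹ * σ π := by
          rw [(hk ta).eq, (hk ta).inv_left.eq]; group
        _ = a ^ k * (σ t * a ^ k) * σ π * (σ t)⁻¹ * σ π := by rw [c1.eq]; group
        _ = _ := by rw [(hk ta).eq]; group
    rw [e3] at e2
    exact eq_inv_of_mul_eq_one_right e2
  have e4 := dj _ (e1 ▸ inv_mem (mul_mem (zpow_mem (mem_zpowers a) k) (zpow_mem (mem_zpowers a) k)))
  rw [e4, map_one, eq_comm, inv_eq_one] at e1
  have e5 : (a ^ k) ^ 3 = 1 := by rw [← zpow_natCast, ← zpow_mul, mul_comm, zpow_mul, zpow_natCast, a3, one_zpow]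
  rw [pow_succ, pow_two, e1, one_mul] at e5
  simp only at e
  rw [e, e5, one_mul]

theorem HM.fa_of (h : HM J el)
    (s6n : ∀ {c1 c2 c4 c5 : Perm (Fin 6)}, c1*c1=1 → c2*c2=1 → c4*c4=1 → c5*c5=1 → (c1*c2)^3=1 → (c4*c5)^3=1 →
      c1 ≠ c2 → c4 ≠ c5 → c1*c4=c4*c1 → c1*c5=c5*c1 → c2*c4=c4*c2 → c2*c5=c5*c2 →
      ∃ α : Perm (Fin 6) ≃* Perm (Fin 6), α (swap 0 1) = c1 ∧ α (swap 1 2) = c2 ∧ α (swap 3 4) = c4 ∧
        α (swap 4 5) = c5 ∧ ∀ π, Perm.sign (α π) = Perm.sign π)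
    (cw : ∀ k, 2 ≤ wt k → centralizer {el (k, 0)} ≤ normalizer (J : Set G))
    (nw : ∀ k, 2 ≤ wt k → ∀ g, g * el (k, 0) * g⁻¹ ∈ zpowers (el (k, 0)) → g ∈ normalizer (J : Set G))
    (f : normalizer (zpowers (el ((1, 0, 0), 0)) : Set G) →* Perm (Fin 6)) (hs : Function.Surjective f)
    (hk : ∀ g, f g = 1 ↔ (g : G) ∈ zpowers (el ((1, 0, 0), 0))) : ∃ a s σ, FA (G := G) a s σ := by
  have exp : ∀ x ∈ J, x ^ 3 = 1 := fun x hx => by
    obtain ⟨k, rfl⟩ := (h.mJ x).1 hx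
    have : ∀ k : K3, qp (k, 0) 3 = (0, 0) := by decide +kernel
    rw [← h.h4_pw, this, h.h4_one]
  have comm : IsMulCommutative J := ⟨⟨fun x y => Subtype.ext (by
    obtain ⟨k, e⟩ := (h.mJ x).1 x.2
    obtain ⟨l, e'⟩ := (h.mJ y).1 y.2
    show x.1 * y.1 = y.1 * x.1
    rw [← e, ← e', ← h.mul, ← h.mul, q4_misc.2.1, q4_misc.2.1, add_comm])⟩⟩
  have card : Nat.card J = 27 := by
    rw [← Nat.card_eq_of_bijective (fun k : K3 => (⟨el (k, 0), (h.mJ _).2 ⟨k, rfl⟩⟩ : J))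
      ⟨fun k l e => congrArg Prod.fst (h.inj (congrArg Subtype.val e)),
        fun x => ((h.mJ x).1 x.2).imp fun k e => Subtype.ext e⟩]
    simp
  obtain ⟨a, ha⟩ : ∃ a, a = el ((1, 0, 0), 0) := ⟨_, rfl⟩
  revert f
  rw [← ha]
  intro f hs hk
  have aJ : a ∈ J := (h.mJ _).2 ⟨_, ha.symm⟩
  have a3 := exp a aJ
  have a1 : a ≠ 1 := fun e => absurd (h.inj ((ha.symm.trans e).trans h.h4_one.symm)) (by decide)
  have ai : a⁻¹ = el ((2, 0, 0), 0) := by rw [ha]; exact h.h4_inv (by decide +kernel)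
  have r1 : el (0, 2) * a * (el (0, 2))⁻¹ = a⁻¹ := by rw [ai, ha]; exact h.h4_cj (by decide +kernel)
  obtain ⟨σ0, p1, p2, p3⟩ := A9R.sp comm exp card aJ a1 f hs hk ⟨_, r1⟩
  have nN : ∀ g : G, g * a * g⁻¹ ∈ zpowers a → g ∈ normalizer (zpowers a : Set G) := fun g hg => by
    refine mem_normalizer_fintype ?_
    rintro _ ⟨k, rfl⟩
    simp only
    rw [← conj_zpow]
    exact zpow_mem hg k
  obtain ⟨c1, u, hu, e1⟩ := p3 _ (nN _ (r1 ▸ inv_mem (mem_zpowers a)))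
  have ua : Commute u a := by
    obtain ⟨k, rfl⟩ := hu
    exact (Commute.refl a).zpow_left k
  have wa : Commute (u * u) a := ua.mul_left ua
  let σ1 : Perm (Fin 6) →* G := (MulAut.conj (u * u)).toMonoidHom.comp σ0
  have d1 : ∀ π, σ1 π = u * u * σ0 π * (u * u)⁻¹ := fun _ => rfl
  have q2 : ∀ π, σ1 π * a * (σ1 π)⁻¹ = if Perm.sign π = 1 then a else a⁻¹ := fun π => by
    have : σ1 π * a * (σ1 π)⁻¹ = u * u * (σ0 π * ((u * u)⁻¹ * a * (u * u)) * (σ0 π)⁻¹) * (u * u)⁻¹ := by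
      rw [d1]; simp only [mul_inv_rev, mul_assoc, inv_inv]
    rw [this, mul_assoc (u * u)⁻¹, ← wa.eq, inv_mul_cancel_left, p2]
    split_ifs
    · rw [wa.eq, mul_inv_cancel_right]
    · rw [wa.inv_right.eq, mul_inv_cancel_right]
  have zc : ∀ π, ∀ v ∈ zpowers a, σ0 π * v * (σ0 π)⁻¹ ∈ zpowers a := fun π v hv =>
    (mem_normalizer_iff.1 (p1 π).1 v).1 hv
  have uu : u * u ∈ zpowers a := mul_mem hu hu
  have q3 : ∀ g : G, g * a * g⁻¹ ∈ zpowers a → ∃ π, ∃ v ∈ zpowers a, g = v * σ1 π := fun g hg => by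
    obtain ⟨π, v, hv, e⟩ := p3 g (nN g hg)
    refine ⟨π, v * (σ0 π * (u * u) * (σ0 π)⁻¹) * (u * u)⁻¹, mul_mem (mul_mem hv (zc π _ uu)) (inv_mem uu), ?_⟩
    rw [d1, e]; group
  have dj : ∀ π, σ1 π ∈ zpowers a → π = 1 := fun π m => by
    have m0 : σ0 π ∈ zpowers a := by
      have : σ0 π = (u * u)⁻¹ * σ1 π * (u * u) := by rw [d1]; group
      rw [this]
      exact mul_mem (mul_mem (inv_mem uu) m) uu
    obtain ⟨hn, e⟩ := p1 π
    rw [← e]
    exact (hk _).2 m0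
  have inj : Function.Injective σ1 := (injective_iff_map_eq_one _).2 fun π e => dj π (e ▸ one_mem _)
  have f1 : σ1 c1 = el (0, 2) := by
    have u3 : u * u * u = 1 := by
      rcases A9R.sp_tri a3 hu with e | e | e <;> rw [e]
      · simp
      · rw [← a3, pow_succ, pow_two]
      · rw [← mul_inv_rev, ← mul_inv_rev, ← mul_assoc, ← pow_two, ← pow_succ, a3, inv_one]
    have ru : el (0, 2) * u * (el (0, 2))⁻¹ = u⁻¹ := by
      obtain ⟨k, rfl⟩ := hu
      simp only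
      rw [← conj_zpow, r1, inv_zpow]
    have e2 : σ0 c1 = u⁻¹ * el (0, 2) := by rw [e1]; group
    rw [d1, e2]
    calc u * u * (u⁻¹ * el (0, 2)) * (u * u)⁻¹
        = u * (el (0, 2) * u * (el (0, 2))⁻¹)⁻¹ * (el (0, 2) * u * (el (0, 2))⁻¹)⁻¹ * el (0, 2) := by group
      _ = u * u * u * el (0, 2) := by rw [ru, inv_inv]
      _ = _ := by rw [u3, one_mul]
  have cm : ∀ p, qm p ((1, 0, 0), 0) = qm ((1, 0, 0), 0) p → Commute (el p) a := fun p e => by
    show el p * a = a * el p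
    rw [ha, ← h.mul, ← h.mul, e]
  have ex : ∀ p t, qm p ((1, 0, 0), 0) = qm ((1, 0, 0), 0) p → Commute (σ1 t) a →
      σ1 t * el p * (σ1 t)⁻¹ = (el p)⁻¹ → ∃ π, σ1 π = el p := fun p t e ta iv => by
    obtain ⟨π, v, hv, e'⟩ := q3 (el p) (by rw [(cm p e).eq, mul_inv_cancel_right]; exact mem_zpowers a)
    exact ⟨π, h4_u a3 dj hv e' (cm p e) ta iv⟩
  obtain ⟨t, ft⟩ := ex (0, 21) 1 (by decide +kernel) (by simp)
    (by rw [h.h4_inv (q := (0, 21)) (by decide +kernel)]; simp)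
  obtain ⟨x2, f2⟩ := ex ((0, 1, 0), 0) t (by decide +kernel) (ft ▸ cm _ (by decide +kernel))
    (by rw [h.h4_inv (p := ((0, 1, 0), 0)) (q := ((0, 2, 0), 0)) (by decide +kernel), ft]
        exact h.h4_cj (by decide +kernel))
  obtain ⟨x3, f3⟩ := ex ((0, 0, 1), 0) t (by decide +kernel) (ft ▸ cm _ (by decide +kernel))
    (by rw [h.h4_inv (p := ((0, 0, 1), 0)) (q := ((0, 0, 2), 0)) (by decide +kernel), ft]
        exact h.h4_cj (by decide +kernel))
  have f4 : σ1 (c1 * t) = el (0, 22) := by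
    rw [map_mul, f1, ft, ← h.mul]; exact congrArg el (by decide +kernel)
  have f5 : σ1 (c1 * x2) = el ((0, 2, 0), 2) := by
    rw [map_mul, f1, f2, ← h.mul]; exact congrArg el (by decide +kernel)
  have f6 : σ1 (c1 * t * x3) = el ((0, 0, 2), 22) := by
    rw [map_mul, f4, f3, ← h.mul]; exact congrArg el (by decide +kernel)
  have k1 : ∀ {x y : Perm (Fin 6)} {p q : Q4} (n : ℕ), σ1 x = el p → σ1 y = el q → qp (qm p q) n = (0, 0) →
      (x * y) ^ n = 1 := fun n e e' c => inj (by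
    rw [map_pow, map_mul, e, e', ← h.mul, ← h.h4_pw, c, h.h4_one, map_one])
  have k2 : ∀ {x y : Perm (Fin 6)} {p q : Q4}, σ1 x = el p → σ1 y = el q → qm p q = qm q p →
      x * y = y * x := fun e e' c => inj (by rw [map_mul, map_mul, e, e', ← h.mul, ← h.mul, c])
  have k3 : ∀ {x y : Perm (Fin 6)} {p q : Q4}, σ1 x = el p → σ1 y = el q → p ≠ q → x ≠ y :=
    fun e e' c d => c (h.inj (by rw [← e, ← e', d]))
  obtain ⟨α, g1, g2, g4, g5, gs⟩ := s6n (c1 := c1) (c2 := c1 * x2) (c4 := c1 * t) (c5 := c1 * t * x3)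
    (by simpa using k1 1 f1 f1 (by decide +kernel)) (by simpa using k1 1 f5 f5 (by decide +kernel))
    (by simpa using k1 1 f4 f4 (by decide +kernel)) (by simpa using k1 1 f6 f6 (by decide +kernel))
    (k1 3 f1 f5 (by decide +kernel)) (k1 3 f4 f6 (by decide +kernel))
    (k3 f1 f5 (by decide)) (k3 f4 f6 (by decide)) (k2 f1 f4 (by decide +kernel))
    (k2 f1 f6 (by decide +kernel)) (k2 f5 f4 (by decide +kernel)) (k2 f5 f6 (by decide +kernel))
  let σ : Perm (Fin 6) →* G := σ1.comp α.toMonoidHom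
  have d2 : ∀ π, σ π = σ1 (α π) := fun _ => rfl
  have s2 : σ c2 = el ((0, 1, 0), 0) := by
    rw [show c2 = swap 0 1 * swap 1 2 by decide +kernel, map_mul, d2, d2, g1, g2, f1, f5, ← h.mul]
    exact congrArg el (by decide +kernel)
  have s3 : σ c3 = el ((0, 0, 1), 0) := by
    rw [show c3 = swap 3 4 * swap 4 5 by decide +kernel, map_mul, d2, d2, g4, g5, f4, f6, ← h.mul]
    exact congrArg el (by decide +kernel)
  have s23 : σ (c2 * c3) = el ((0, 1, 1), 0) := by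
    rw [map_mul, s2, s3, ← h.mul]; exact congrArg el (by decide +kernel)
  have s123 : a * σ (c2 * c3) = el ((1, 1, 1), 0) := by
    rw [s23, ha, ← h.mul]; exact congrArg el (by decide +kernel)
  have zp : ∀ (p : Q4) (k : K3), qm p ((1, 0, 0), 0) = qm (k, 0) p ∨ qm p ((1, 0, 0), 0) = qm (k + k, 0) p →
      el p * a * (el p)⁻¹ ∈ zpowers (el (k, 0)) := fun p k c => by
    rcases c with c | c <;> rw [ha, h.h4_cj c]
    · exact mem_zpowers _
    · rw [← q4_misc.2.1, h.mul]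
      exact mul_mem (mem_zpowers _) (mem_zpowers _)
  have nb : ∀ g : G, g * σ (c2 * c3) * g⁻¹ ∈ zpowers (σ (c2 * c3)) → g * a * g⁻¹ ∈ zpowers a := fun g hg => by
    rw [s23] at hg
    obtain ⟨p, rfl⟩ := (h.nJ g).1 (nw _ (by decide) g hg)
    have D : ∀ p : Q4, (qm p ((0, 1, 1), 0) = qm (0, 0) p ∨ qm p ((0, 1, 1), 0) = qm ((0, 1, 1), 0) p ∨
        qm p ((0, 1, 1), 0) = qm ((0, 2, 2), 0) p) → qm p ((1, 0, 0), 0) = qm ((1, 0, 0), 0) p ∨
        qm p ((1, 0, 0), 0) = qm ((1, 0, 0) + (1, 0, 0), 0) p := by decide +kernel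
    have zq := zp p (1, 0, 0)
    rw [← ha] at zq
    refine zq (D p ?_)
    rcases A9R.sp_tri (exp _ ((h.mJ _).2 ⟨_, rfl⟩)) hg with e | e | e
    · exact .inl (h.h4_cj' (e.trans h.h4_one.symm))
    · exact .inr (.inl (h.h4_cj' e))
    · exact .inr (.inr (h.h4_cj' (e.trans (h.h4_inv (by decide +kernel)))))
  refine ⟨a, el (0, 20), σ, a3, a1, inj.comp α.injective, fun π => by rw [d2, q2, gs], fun g hg => ?_,
    ?_, ?_, ?_, ?_, fun g hg => nb g (by rw [hg, mul_inv_cancel_right]; exact mem_zpowers _), ?_, nb, ?_⟩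
  · obtain ⟨π, v, hv, e⟩ := q3 g hg
    exact ⟨α.symm π, v, hv, by rw [d2, α.apply_symm_apply, e]⟩
  · rw [← h.mul, ← h.h4_one]; exact congrArg el (by decide +kernel)
  · rw [s3, ha]; exact h.h4_cj (by decide +kernel)
  · rw [s2, h.h4_inv (p := ((0, 1, 0), 0)) (q := ((0, 2, 0), 0)) (by decide +kernel)]
    exact h.h4_cj (by decide +kernel)
  · rw [map_mul σ, d2, d2, g1, g4, f1, f4, ← h.mul (0, 2) (0, 22)]
    exact h.h4_cj (by decide +kernel)
  · rw [s123]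
    intro g
    obtain ⟨p, e⟩ := (h.nJ g).1 (cw _ (by decide) g.2)
    have D : ∀ p : Q4, qm p ((1, 1, 1), 0) = qm ((1, 1, 1), 0) p → qp p 9 = (0, 0) := by decide +kernel
    refine ⟨2, Subtype.ext ?_⟩
    have c := mem_centralizer_singleton_iff.1 g.2
    rw [← e, ← h.mul, ← h.mul] at c
    show g.1 ^ 9 = 1
    rw [← e, ← h.h4_pw, D p (h.inj c), h.h4_one]
  · intro g hg
    rw [s123] at hg
    obtain ⟨p, rfl⟩ := (h.nJ g).1 (nw _ (by decide) g hg)
    have D : ∀ p : Q4, (qm p ((1, 0, 0), 0) = qm ((1, 0, 0), 0) p ∨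
        qm p ((1, 0, 0), 0) = qm ((1, 0, 0) + (1, 0, 0), 0) p) ∨ (qm p ((1, 0, 0), 0) = qm ((0, 1, 0), 0) p ∨
        qm p ((1, 0, 0), 0) = qm ((0, 1, 0) + (0, 1, 0), 0) p) ∨ (qm p ((1, 0, 0), 0) = qm ((0, 0, 1), 0) p ∨
        qm p ((1, 0, 0), 0) = qm ((0, 0, 1) + (0, 0, 1), 0) p) := by decide +kernel
    rw [s2, s3]
    have zq := zp p (1, 0, 0)
    rw [← ha] at zq
    exact (D p).imp zq (Or.imp (zp p _) (zp p _))

end Cfsg.Agent.A9M
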